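import Mathlib
import Cfsg.Agent.Lib.MultC.Pkg2
import Cfsg.Agent.Lib.MultC.M22.Link
import Cfsg.Agent.Lib.MultC.M22.C.Main

/-! the group of the Prelude is the group of the package -/

namespace CfsgLib.MultC.M22

open CfsgLib.Comput CfsgLib.MultC CfsgLib.Mathieu

theorem iso : Nonempty (↥Cfsg.Spor.M22 ≃* cl (permG 24 C.W) C.top) :=
  iso_of_real_two model (a := 0) (b := 2) (by norm_num) (by norm_num)
    (isReal_of_has (has_M22 (a := 964694918990427769707830126516973248) (by decide +kernel)) (by decide +kernel))
    (isReal_of_has (has_M22 (a := 957109614789993409777933218640746080) (by decide +kernel)) (by decide +kernel))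
    card_M22 (by norm_num) C.card_perm

end CfsgLib.MultC.M22
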