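import Mathlib
import Cfsg.Agent.Lib.MultC.M22.Base

/-! multiplier certificate for the prime 3 (generated) -/

set_option autoImplicit false
set_option maxRecDepth 100000

namespace CfsgLib.MultC.M22.P3

open CfsgLib.Comput CfsgLib.MultC

noncomputable def x0 : Net :=
  Net.cons 1 0x44140
  (Net.cons 2 0x320000
  (Net.cons 4 0xf0a00
  (Net.cons 8 44
  (Net.cons 16 188
  (Net.cons 8 132
  (Net.cons 4 0xa0e08
  (Net.cons 2 0x301200
  (Net.cons 1 0x100440
  (Net.nil)))))))))

noncomputable def x1 : Net :=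
  Net.cons 1 0x115000
  (Net.cons 2 0x300000
  (Net.cons 4 0xa0c00
  (Net.cons 8 41
  (Net.cons 16 105
  (Net.cons 8 53
  (Net.cons 4 0xa0408
  (Net.cons 2 0x221010
  (Net.cons 1 0x11144
  (Net.nil)))))))))

noncomputable def x2 : Net :=
  Net.cons 1 0x511040
  (Net.cons 2 0x223200
  (Net.cons 4 0x80800
  (Net.cons 8 12
  (Net.cons 16 156
  (Net.cons 8 76
  (Net.cons 4 0xa0a00
  (Net.cons 2 0x223200
  (Net.cons 1 0x511140
  (Net.nil)))))))))

noncomputable def X : List Net := [x0, x1, x2]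

def D : Dat := ⟨2, 2, 2,
  64,
  2, 65,
  130,
  0, 9⟩

def R0 : List (ℕ × ℕ × ℕ × List ℕ) := [(8, 1, 0, [22])]
def R1 : List (ℕ × List ℕ × List ℕ × List ℕ) := [(0, [0, 0, 0], [], [1, 51]),
  (0, [1, 1, 1], [], [33, 67])]

noncomputable def A : LA := ⟨12, [[49], [65]],
  [[17]], [3],
  Dat.sps R0 ++ (Dat.sps R1),
  [0x800,
  8,
  0x8000],
  [4]⟩

def lv : LB := [(4, 1, [2, 2, 1, 1])]

theorem r0 : D.consAll 12 R0 = true := by decide +kernel
theorem r1 : D.fusAll 12 R1 = true := by decide +kernel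
theorem xw : wordsOK 24 5 U X [[0xb0a0b0f1014], [0x6060a0909110d], [0x110d13]] = true := by decide +kernel
theorem c1_0 : allRg (D.rowChk (stepT 24 5 X) (idTab 24 5)) 0 2 = true := by decide +kernel
theorem c2_0 : allRg (D.fusChk (stepT 24 5 X) (idTab 24 5)) 0 2 = true := by decide +kernel
theorem c3 : lbOK 24 X 2 (3 ^ 2) lv = true := by decide +kernel
theorem c4 : D.basicOK A = true := by decide +kernel
theorem c5_0 : allRg (D.rowOK A) 0 2 = true := by decide +kernel

theorem pb {G : Type*} {Ω : Type*} [Group G] [MulAction G Ω] {pt : ℕ → Ω} (M : PModel G 24 pt)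
    (h : AllReal G 24 pt V0) (hG : Nat.card G = 443520) : PBound G 3 [3] :=
  M.pBound (W := X) (k := 5) (D := D) (A := A) ((realU h).words (by norm_num) xw) (by norm_num) (by norm_num) rfl 1 rfl
    (by decide) rfl (by decide) (allRg_zero c1_0) (allRg_zero c2_0) c3 hG
    (by decide +kernel) ((D.allGood_cons 12 R0 (by norm_num) r0).append (D.allGood_fus 12 R1 (by norm_num) r1)) c4 (allRg_zero c5_0)

end CfsgLib.MultC.M22.P3
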