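import Mathlib
import Cfsg.Agent.Lib.MultC.M22.P2
import Cfsg.Agent.Lib.MultC.M22.P3

/-! the primes which do not divide the order of the multiplier -/

set_option autoImplicit false
set_option maxRecDepth 100000

namespace CfsgLib.MultC.M22

open CfsgLib.Comput CfsgLib.MultC

theorem others {G : Type*} {Ω : Type*} [Group G] [MulAction G Ω] {pt : ℕ → Ω} (M : PModel G 24 pt)
    (h : AllReal G 24 pt V0) (hG : Nat.card G = 443520) (r : ℕ) (hr : r.Prime) (hd : r ∣ Nat.card G)
    (h2 : r ≠ 2) (h3 : r ≠ 3) : PBound G r [] := by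
  have : Finite G := Nat.finite_of_card_ne_zero (by rw [hG]; norm_num)
  exact pBound_of_not_mem hG [2, 3] [5, 7, 11] 7 (by decide +kernel) (by simp; norm_num)
    (by decide +kernel) hr hd (by simp [h2, h3])

end CfsgLib.MultC.M22
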